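import Cfsg.Agent.H534.EPX.Epi
import Cfsg.Agent.H209.EPX.Defs
import Cfsg.Agent.H475.MaxPGroup

/-!
# S5745, tool (E_pi): the choice of `π`

`pi_of_coatom` : if no maximal subgroup of `H` is an `s`-group then `π = {r | r ≠ s}` is allowed in `H534.EPX.count`.
`pi_of_odd` : this holds for `s` odd and `H` not solvable (Thompson, `H475.MaxPGroup`).
`EPS.not_solvable` : `H` is not solvable in case EPS.
-/

set_option autoImplicit false
set_option linter.unusedSectionVars false

namespace Cfsg.Agent.H534.EPX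

open MulAction Subgroup Cfsg.Agent.H284 Cfsg.Agent.H209.EPX

variable {G : Type*} [Group G]

/-- the two-point stabilisers are maximal subgroups of `H` -/
theorem isCoatom_inf [Finite G] {H : Subgroup G} (h : EP H) {g : G} (hg : g ∉ H) :
    IsCoatom ((H ⊓ cj g H).subgroupOf H) := by
  constructor
  · intro e
    apply h.not_le_cj hg
    rw [Subgroup.subgroupOf_eq_top] at e
    exact e.trans inf_le_right
  · intro L hL
    have h1 : H ⊓ cj g H ≤ L.map H.subtype := by
      intro x hx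
      exact ⟨⟨x, (mem_inf.1 hx).1⟩, hL.le (show (x : G) ∈ H ⊓ cj g H from hx), rfl⟩
    have h2 : L.map H.subtype ≤ H := by
      rintro _ ⟨y, _, rfl⟩
      exact y.2
    rcases h.two g hg _ h1 h2 with h3 | h3
    · exfalso
      apply hL.not_ge
      intro y hy
      rw [Subgroup.mem_subgroupOf, ← h3]
      exact ⟨y, hy, rfl⟩
    · rw [eq_top_iff]
      intro y _
      have h4 : (y : G) ∈ L.map H.subtype := by rw [h3]; exact y.2
      obtain ⟨z, hz, e⟩ := h4
      have : z = y := Subtype.ext e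
      rwa [← this]

/-- `π = {r | r ≠ s}` if no maximal subgroup of `H` is an `s`-group -/
theorem pi_of_coatom [Finite G] {H : Subgroup G} (h : EP H) {s : ℕ} (hs : s.Prime)
    (hM : ∀ M : Subgroup H, IsCoatom M → ¬ IsPGroup s M) :
    ∀ g ∉ H, ∃ r ∈ {r : ℕ | r ≠ s}, r.Prime ∧ r ∣ Nat.card (H ⊓ cj g H : Subgroup G) := by
  intro g hg
  by_contra hcon
  push Not at hcon
  apply hM _ (isCoatom_inf h hg)
  have := Fact.mk hs
  have e : Nat.card ((H ⊓ cj g H).subgroupOf H) = Nat.card (H ⊓ cj g H : Subgroup G) :=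
    Nat.card_congr (Subgroup.subgroupOfEquivOfLe inf_le_left).toEquiv
  rw [IsPGroup.iff_card]
  refine ⟨(Nat.card (H ⊓ cj g H : Subgroup G)).primeFactorsList.length, ?_⟩
  rw [e]
  apply Nat.eq_prime_pow_of_unique_prime_dvd Nat.card_pos.ne'
  intro d hd hd2
  by_contra hne
  exact hcon d hne hd hd2

/-- `π = {r | r ≠ s}`, `s` odd, `H` not solvable -/
theorem pi_of_odd [Finite G] {H : Subgroup G} (h : EP H) {s : ℕ} (hs : s.Prime) (h2 : s ≠ 2)
    (hns : ¬ Group.IsSolvable H) :
    ∀ g ∉ H, ∃ r ∈ {r : ℕ | r ≠ s}, r.Prime ∧ r ∣ Nat.card (H ⊓ cj g H : Subgroup G) := by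
  have := Fact.mk hs
  refine pi_of_coatom h hs fun M hM hMs => hns ?_
  exact Cfsg.Agent.H475.MaxPGroup.isSolvable_of_odd h2 _ rfl M hM hMs

/-- `H` is not solvable in case EPS -/
theorem _root_.Cfsg.Agent.H209.EPX.EPS.not_solvable {H N : Subgroup G} {T : Type} [Group T] {k : ℕ}
    {e : N ≃* (Fin k → T)} (h : EPS H N e) : ¬ Group.IsSolvable H := by
  intro hs
  have h1 : Group.IsSolvable N := by
    have := hs
    exact Group.isSolvable_of_isSolvable_injective (f := Subgroup.inclusion h.le) (Subgroup.inclusion_injective h.le)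
  have h2 : Group.IsSolvable (Fin k → T) := by
    have := h1
    exact Group.isSolvable_of_surjective (f := e.toMonoidHom) e.surjective
  have h3 : Group.IsSolvable T := by
    have := h2
    exact Group.isSolvable_of_surjective (f := Pi.evalMonoidHom (fun _ : Fin k => T) ⟨0, h.pos⟩)
      (fun t => ⟨fun _ => t, rfl⟩)
  obtain ⟨a, b, hab⟩ := h.nab
  have := h.simple
  have := h3
  exact hab (IsSimpleGroup.comm_iff_isSolvable.2 h3 a b)

/-- (E_pi) in case EPS, `s` odd -/
theorem _root_.Cfsg.Agent.H209.EPX.EPS.pi [Finite G] {H N : Subgroup G} {T : Type} [Group T] {k : ℕ}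
    {e : N ≃* (Fin k → T)} (h : EPS H N e) {s : ℕ} (hs : s.Prime) (h2 : s ≠ 2) :
    ∀ g ∉ H, ∃ r ∈ {r : ℕ | r ≠ s}, r.Prime ∧ r ∣ Nat.card (H ⊓ cj g H : Subgroup G) :=
  pi_of_odd h.ep hs h2 h.not_solvable

end Cfsg.Agent.H534.EPX
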